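import Cfsg.Agent.FormConj.Semisimple
import Cfsg.Agent.GLOrders.Regular
import Mathlib.GroupTheory.Index
import Mathlib.Algebra.Group.Subgroup.Finite

/-!
The commutant of a regular nilpotent skew element and its norm-one units.
-/

set_option autoImplicit false

open Matrix

namespace CfsgLib.FormConj

variable {F : Type*} [Field F] {ι : Type*} [Fintype ι] [DecidableEq ι] {n : ℕ}

/-- The polynomial in `D` with coefficient vector `v`. -/
def rpoly (D : Matrix ι ι F) (v : Fin n → F) : Matrix ι ι F := ∑ i : Fin n, v i • D ^ (i : ℕ)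

/-- `D` is regular nilpotent of size `n`. -/
structure RegNil (D : Matrix ι ι F) (n : ℕ) : Prop where
  pos : 1 ≤ n
  card : Fintype.card ι = n
  pow : D ^ n = 0
  rank : D.rank = n - 1

theorem rpoly_shiftMat (v : Fin n → F) :
    rpoly (CfsgLib.GLOrders.shiftMat F n) v = CfsgLib.GLOrders.toeplitz v := by
  ext i j
  rw [rpoly, Matrix.sum_apply]
  simp only [Matrix.smul_apply, CfsgLib.GLOrders.shiftMat_pow, smul_eq_mul, mul_ite, mul_one, mul_zero,
    CfsgLib.GLOrders.toeplitz, Matrix.of_apply]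
  by_cases h : j.val ≤ i.val
  · rw [if_pos h, Finset.sum_eq_single (⟨i.val - j.val, by omega⟩ : Fin n)]
    · rw [if_pos (show i.val = j.val + (i.val - j.val) by omega)]
    · intro k _ hk
      rw [if_neg fun hc => hk (Fin.ext (show k.val = i.val - j.val by omega))]
    · simp
  · rw [if_neg h, Finset.sum_eq_zero fun k _ => if_neg (by omega)]

variable {D : Matrix ι ι F}

theorem RegNil.frame (hD : RegNil D n) :
    ∃ Φ : Matrix ι ι F ≃ₐ[F] Matrix (Fin n) (Fin n) F, Φ D = CfsgLib.GLOrders.shiftMat F n := by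
  let e : ι ≃ Fin n := Fintype.equivFinOfCardEq hD.card
  let R := Matrix.reindexAlgEquiv F F e
  have h1 : R D ^ n = 0 := by rw [← map_pow, hD.pow, map_zero]
  have h2 : (R D).rank = n - 1 := by
    show (Matrix.reindex e e D).rank = n - 1
    rw [Matrix.rank_reindex, hD.rank]
  obtain ⟨P, hP⟩ := CfsgLib.GLOrders.exists_conj_shiftMat hD.pos _ h1 h2
  let Ψ : Matrix (Fin n) (Fin n) F ≃ₐ[F] Matrix (Fin n) (Fin n) F :=
    AlgEquiv.ofAlgHom
      { toFun := fun M => (P⁻¹ : GL (Fin n) F).1 * M * P.1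
        map_one' := by rw [mul_one, Units.inv_mul]
        map_mul' := fun M N => by simp only [mul_assoc, Units.mul_inv_cancel_left]
        map_zero' := by simp
        map_add' := fun M N => by rw [mul_add, add_mul]
        commutes' := fun a => by rw [← Algebra.commutes, mul_assoc, Units.inv_mul, mul_one] }
      { toFun := fun M => P.1 * M * (P⁻¹ : GL (Fin n) F).1
        map_one' := by rw [mul_one, Units.mul_inv]
        map_mul' := fun M N => by simp only [mul_assoc, Units.inv_mul_cancel_left]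
        map_zero' := by simp
        map_add' := fun M N => by rw [mul_add, add_mul]
        commutes' := fun a => by rw [← Algebra.commutes, mul_assoc, Units.mul_inv, mul_one] }
      (AlgHom.ext fun M => by
        show (P⁻¹ : GL (Fin n) F).1 * (P.1 * M * (P⁻¹ : GL (Fin n) F).1) * P.1 = M
        simp only [mul_assoc, Units.inv_mul, mul_one, Units.inv_mul_cancel_left])
      (AlgHom.ext fun M => by
        show P.1 * ((P⁻¹ : GL (Fin n) F).1 * M * P.1) * (P⁻¹ : GL (Fin n) F).1 = M
        simp only [mul_assoc, Units.mul_inv, mul_one, Units.mul_inv_cancel_left])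
  refine ⟨R.trans Ψ, ?_⟩
  show (P⁻¹ : GL (Fin n) F).1 * R D * P.1 = _
  rw [mul_assoc, hP, Units.inv_mul_cancel_left]

theorem RegNil.exists_rpoly (hD : RegNil D n) {C : Matrix ι ι F} (hC : C * D = D * C) : ∃ v, C = rpoly D (n := n) v := by
  obtain ⟨Φ, hΦ⟩ := hD.frame
  have h := congrArg Φ hC
  rw [map_mul, map_mul, hΦ] at h
  have hT := (CfsgLib.GLOrders.commute_shiftMat_iff hD.pos (Φ C)).1 h
  refine ⟨fun i => Φ C i ⟨0, hD.pos⟩, Φ.injective (hT.trans ((rpoly_shiftMat _).symm.trans ?_))⟩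
  simp [rpoly, hΦ]

theorem RegNil.rpoly_injective (hD : RegNil D n) : Function.Injective (rpoly D (n := n)) := fun v w h => by
  obtain ⟨Φ, hΦ⟩ := hD.frame
  have h' := congrArg Φ h
  simp only [rpoly, map_sum, map_smul, map_pow, hΦ] at h'
  change rpoly _ v = rpoly _ w at h'
  rw [rpoly_shiftMat, rpoly_shiftMat] at h'
  rw [← CfsgLib.GLOrders.toeplitz_col hD.pos v, h', CfsgLib.GLOrders.toeplitz_col]

theorem commute_rpoly (v w : Fin n → F) : Commute (rpoly D v) (rpoly D w) :=
  Commute.sum_left _ _ _ fun i _ => Commute.sum_right _ _ _ fun j _ =>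
    ((Commute.pow_pow_self D _ _).smul_left _).smul_right _

theorem rpoly_commute (v : Fin n → F) : rpoly D v * D = D * rpoly D v :=
  (Commute.sum_left _ _ _ fun i _ => ((Commute.refl D).pow_left _).smul_left _)

theorem RegNil.commute (hD : RegNil D n) {B C : Matrix ι ι F} (hB : B * D = D * B) (hC : C * D = D * C) :
    Commute B C := by
  obtain ⟨v, rfl⟩ := hD.exists_rpoly hB
  obtain ⟨w, rfl⟩ := hD.exists_rpoly hC
  exact commute_rpoly v w

theorem RegNil.nil_sub (hD : RegNil D n) (v : Fin n → F) :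
    IsNilpotent (rpoly D v - algebraMap F _ (v ⟨0, hD.pos⟩)) := by
  classical
  have e : rpoly D v - algebraMap F _ (v ⟨0, hD.pos⟩) = rpoly D (Function.update v ⟨0, hD.pos⟩ 0) := by
    rw [rpoly, rpoly, sub_eq_iff_eq_add, ← Finset.add_sum_erase _ _ (Finset.mem_univ (⟨0, hD.pos⟩ : Fin n)),
      ← Finset.add_sum_erase _ _ (Finset.mem_univ (⟨0, hD.pos⟩ : Fin n))]
    rw [Function.update_self, zero_smul, zero_add, pow_zero, Algebra.algebraMap_eq_smul_one, add_comm]
    congr 1
    exact Finset.sum_congr rfl fun i hi => by rw [Function.update_of_ne (Finset.ne_of_mem_erase hi)]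
  rw [e, rpoly]
  refine Commute.isNilpotent_sum (fun i _ => ?_) fun i j _ _ => ((Commute.pow_pow_self D _ _).smul_left _).smul_right _
  by_cases hi : i = ⟨0, hD.pos⟩
  · subst hi; rw [Function.update_self, zero_smul]; exact IsNilpotent.zero
  · exact IsNilpotent.smul (IsNilpotent.pow_of_pos ⟨n, hD.pow⟩ fun h => hi (Fin.ext h)) _

theorem eq_of_nil_sub [Nonempty ι] {C : Matrix ι ι F} {a b : F} (ha : IsNilpotent (C - algebraMap F _ a))
    (hb : IsNilpotent (C - algebraMap F _ b)) : a = b := by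
  have hc : Commute (C - algebraMap F (Matrix ι ι F) b) (C - algebraMap F _ a) :=
    ((Commute.refl C).sub_right (Algebra.commute_algebraMap_right a C)).sub_left
      ((Algebra.commute_algebraMap_left b C).sub_right (Algebra.commute_algebraMap_left b _))
  have h := hc.isNilpotent_sub hb ha
  rw [sub_sub_sub_cancel_left, ← map_sub] at h
  exact sub_eq_zero.1 ((IsNilpotent.map_iff (FaithfulSMul.algebraMap_injective F (Matrix ι ι F))).1 h).eq_zero

theorem RegNil.coeff_zero (hD : RegNil D n) {v : Fin n → F} {a : F}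
    (ha : IsNilpotent (rpoly D v - algebraMap F _ a)) : v ⟨0, hD.pos⟩ = a := by
  haveI : Nonempty ι := Fintype.card_pos_iff.1 (by rw [hD.card]; exact hD.pos)
  exact eq_of_nil_sub (hD.nil_sub v) ha

theorem nil_mul_sub {B C : Matrix ι ι F} {a b : F} (hc : Commute B C) (ha : IsNilpotent (B - algebraMap F _ a))
    (hb : IsNilpotent (C - algebraMap F _ b)) : IsNilpotent (B * C - algebraMap F _ (a * b)) := by
  have e : B * C - algebraMap F _ (a * b) = (B - algebraMap F _ a) * C + algebraMap F _ a * (C - algebraMap F _ b) := by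
    rw [map_mul, sub_mul, mul_sub]; abel
  rw [e]
  have c1 : Commute (B - algebraMap F (Matrix ι ι F) a) C := hc.sub_left (Algebra.commute_algebraMap_left a C)
  have cB : ∀ x : F, Commute (B - algebraMap F (Matrix ι ι F) a) (algebraMap F _ x) :=
    fun x => Algebra.commute_algebraMap_right x _
  refine Commute.isNilpotent_add ?_ (c1.isNilpotent_mul_right ha)
    ((Algebra.commute_algebraMap_left a _).isNilpotent_mul_left hb)
  refine Commute.mul_left ((cB a).mul_right (c1.sub_right (cB b))) ?_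
  exact (Algebra.commute_algebraMap_right a C).mul_right ((Commute.refl C).sub_right (Algebra.commute_algebraMap_right b C))

variable [Finite F] {G : Matrix ι ι F}

/-- Units of residue one in the commutant. -/
def unipComm (hD : RegNil D n) : Subgroup (GL ι F) where
  carrier := {C | C.1 * D = D * C.1 ∧ IsNilpotent (C.1 - algebraMap F _ 1)}
  one_mem' := ⟨by simp, by simp⟩
  mul_mem' := by
    rintro B C ⟨hB, hB'⟩ ⟨hC, hC'⟩
    refine ⟨?_, ?_⟩
    · show B.1 * C.1 * D = D * (B.1 * C.1)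
      rw [mul_assoc, hC, ← mul_assoc, hB, mul_assoc]
    · have := nil_mul_sub (hD.commute hB hC) hB' hC'
      rwa [one_mul] at this
  inv_mem' := by
    rintro C ⟨hC, hC'⟩
    have hC2 : (C⁻¹ : GL ι F).1 * D = D * (C⁻¹ : GL ι F).1 :=
      (Commute.units_inv_left (show Commute C.1 D from hC)).eq
    refine ⟨hC2, ?_⟩
    have e : (C⁻¹ : GL ι F).1 - algebraMap F _ 1 = -((C⁻¹ : GL ι F).1 * (C.1 - algebraMap F _ 1)) := by
      rw [mul_sub, Units.inv_mul, map_one, mul_one, neg_sub]
    rw [e]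
    exact ((Commute.units_inv_left ((Commute.refl C.1).sub_right (Algebra.commute_algebraMap_right 1 C.1))).isNilpotent_mul_left hC').neg

/-- The sign twist of coefficients. -/
def sgn (v : Fin n → F) : Fin n → F := fun i => (-1) ^ (i : ℕ) * v i

omit [Finite F] in
theorem adj_sub' (θ : F →+* F) (A B : Matrix ι ι F) : adj θ G (A - B) = adj θ G A - adj θ G B := by
  rw [eq_sub_iff_add_eq, ← adj_add, sub_add_cancel]

omit [Finite F] in
theorem adj_rpoly (hG : IsUnit G.det) (hs : adj (RingHom.id F) G D = -D) (v : Fin n → F) :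
    adj (RingHom.id F) G (rpoly D v) = rpoly D (sgn v) := by
  have hpow : ∀ k, adj (RingHom.id F) G (D ^ k) = (-D) ^ k := fun k => by
    induction k with
    | zero => rw [pow_zero, pow_zero, adj_one _ hG]
    | succ k ih => rw [pow_succ, adj_mul _ hG, ih, hs, pow_succ']
  let Φ : Matrix ι ι F →+ Matrix ι ι F := AddMonoidHom.mk' (adj (RingHom.id F) G) (adj_add _)
  show Φ (∑ i, v i • D ^ (i : ℕ)) = _
  rw [map_sum]
  refine Finset.sum_congr rfl fun i _ => ?_
  show adj (RingHom.id F) G (v i • D ^ (i : ℕ)) = sgn v i • D ^ (i : ℕ)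
  rw [show adj (RingHom.id F) G (v i • D ^ (i : ℕ)) = v i • adj (RingHom.id F) G (D ^ (i : ℕ)) by
    simp only [adj, dag_smul, RingHom.id_apply, Matrix.mul_smul, Matrix.smul_mul], hpow, ← neg_one_smul F D, smul_pow,
    smul_smul, sgn, mul_comm]

theorem card_unipComm (hD : RegNil D n) : Nat.card (unipComm hD) = Nat.card F ^ (n - 1) := by
  classical
  haveI := Fintype.ofFinite F
  have hz : ∀ w : {i : Fin n // i ≠ ⟨0, hD.pos⟩} → F, ∃ C : unipComm hD,
      C.1.1 = rpoly D (fun i => if h : i = ⟨0, hD.pos⟩ then 1 else w ⟨i, h⟩) := by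
    intro w
    have h := hD.nil_sub (fun i => if h : i = ⟨0, hD.pos⟩ then 1 else w ⟨i, h⟩)
    simp only [dite_true] at h
    have hu := h.isUnit_one_add
    rw [map_one, add_sub_cancel] at hu
    exact ⟨⟨hu.unit, rpoly_commute _, h⟩, rfl⟩
  choose f hf using hz
  have hfb : Function.Bijective f := by
    refine ⟨fun a b e => funext fun i => ?_, fun C => ?_⟩
    · have := congrFun (hD.rpoly_injective ((hf a).symm.trans ((congrArg (fun C : unipComm hD => C.1.1) e).trans (hf b)))) i.1
      simpa [i.2] using this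
    · obtain ⟨v, hv⟩ := hD.exists_rpoly C.2.1
      have h0 : v ⟨0, hD.pos⟩ = 1 := hD.coeff_zero (hv ▸ C.2.2)
      refine ⟨fun i => v i.1, Subtype.ext (Units.ext ?_)⟩
      rw [hf, hv]
      congr 1
      funext i
      split
      · rename_i h; rw [h, h0]
      · rfl
  rw [← Nat.card_eq_of_bijective f hfb, Nat.card_fun, Nat.card_eq_fintype_card (α := {i : Fin n // i ≠ ⟨0, hD.pos⟩}),
    Fintype.card_subtype_compl, Fintype.card_subtype_eq, Fintype.card_fin]

/-- The fixed units of residue one. -/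
def fixComm (hD : RegNil D n) (hG : IsUnit G.det) : Subgroup (GL ι F) where
  carrier := {C | C ∈ unipComm hD ∧ adj (RingHom.id F) G C.1 = C.1}
  one_mem' := ⟨one_mem _, by rw [Units.val_one, adj_one _ hG]⟩
  mul_mem' := by
    rintro B C ⟨hB, hB'⟩ ⟨hC, hC'⟩
    refine ⟨mul_mem hB hC, ?_⟩
    rw [Units.val_mul, adj_mul _ hG, hB', hC']
    exact (hD.commute hB.1 hC.1).symm.eq
  inv_mem' := by
    rintro C ⟨hC, hC'⟩
    refine ⟨Subgroup.inv_mem _ hC, ?_⟩
    have h : adj (RingHom.id F) G (C⁻¹ : GL ι F).1 * C.1 = 1 := by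
      conv_lhs => arg 2; rw [← hC']
      rw [← adj_mul _ hG, Units.mul_inv, adj_one _ hG]
    calc adj (RingHom.id F) G (C⁻¹ : GL ι F).1 =
          adj (RingHom.id F) G (C⁻¹ : GL ι F).1 * (C.1 * (C⁻¹ : GL ι F).1) := by rw [Units.mul_inv, mul_one]
      _ = (C⁻¹ : GL ι F).1 := by rw [← mul_assoc, h, one_mul]

theorem card_fixComm {m : ℕ} (hn : n = 2 * m) (h2 : (2 : F) ≠ 0) (hD : RegNil D n) (hG : IsUnit G.det)
    (hs : adj (RingHom.id F) G D = -D) : Nat.card (fixComm hD hG) = Nat.card F ^ (m - 1) := by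
  classical
  haveI := Fintype.ofFinite F
  have hlt : ∀ i : Fin n, i.val ≠ 0 → i.val % 2 = 0 → i.val / 2 - 1 < m - 1 := fun i h1 h2 => by
    have := i.isLt
    omega
  let vec : (Fin (m - 1) → F) → Fin n → F := fun w i =>
    if h0 : i.val = 0 then 1 else if h : i.val % 2 = 0 then w ⟨i.val / 2 - 1, hlt i h0 h⟩ else 0
  have hz : ∀ w, ∃ C : fixComm hD hG, C.1.1 = rpoly D (vec w) := by
    intro w
    have h := hD.nil_sub (vec w)
    rw [show vec w ⟨0, hD.pos⟩ = 1 from dif_pos rfl] at h
    have hu := h.isUnit_one_add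
    rw [map_one, add_sub_cancel] at hu
    refine ⟨⟨hu.unit, ⟨rpoly_commute _, h⟩, ?_⟩, rfl⟩
    rw [IsUnit.unit_spec, adj_rpoly hG hs]
    congr 1
    funext i
    simp only [sgn, vec]
    by_cases hp : i.val % 2 = 0
    · rw [(Nat.even_iff.2 hp).neg_one_pow, one_mul]
    · have : i.val ≠ 0 := fun h0 => hp (by omega)
      rw [dif_neg this, dif_neg hp, mul_zero]
  choose f hf using hz
  have hfb : Function.Bijective f := by
    refine ⟨fun a b e => funext fun j => ?_, fun C => ?_⟩
    · have hj := j.isLt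
      have := congrFun (hD.rpoly_injective ((hf a).symm.trans ((congrArg (fun C : fixComm hD hG => C.1.1) e).trans (hf b))))
        ⟨2 * (j.val + 1), by omega⟩
      simp only [vec] at this
      simp only [dif_neg (show ¬ 2 * (j.val + 1) = 0 by omega), dif_pos (show 2 * (j.val + 1) % 2 = 0 by omega)] at this
      simpa using this
    · obtain ⟨v, hv⟩ := hD.exists_rpoly C.2.1.1
      have h0 : v ⟨0, hD.pos⟩ = 1 := hD.coeff_zero (hv ▸ C.2.1.2)
      have hsg : sgn v = v := hD.rpoly_injective (by rw [← adj_rpoly hG hs, ← hv, C.2.2])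
      refine ⟨fun j => v ⟨2 * (j.val + 1), by have := j.isLt; omega⟩, Subtype.ext (Units.ext ?_)⟩
      rw [hf, hv]
      congr 1
      funext i
      simp only [vec]
      split_ifs with hi hp
      · rw [show i = ⟨0, hD.pos⟩ from Fin.ext hi, h0]
      · exact congrArg v (Fin.ext (show 2 * (i.val / 2 - 1 + 1) = i.val by omega))
      · have h := congrFun hsg i
        rw [sgn, (Nat.odd_iff.2 (show i.val % 2 = 1 by omega)).neg_one_pow] at h
        exact ((mul_eq_zero.1 (show (2 : F) * v i = 0 by linear_combination -h)).resolve_left h2).symm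
  rw [← Nat.card_eq_of_bijective f hfb, Nat.card_fun, Nat.card_fin]

/-- The norm on the units of residue one. -/
theorem exists_norm_hom (hD : RegNil D n) (hG : IsUnit G.det) (hs : adj (RingHom.id F) G D = -D)
    (hskew : ∀ C, adj (RingHom.id F) G (adj (RingHom.id F) G C) = C) :
    ∃ ψ : unipComm hD →* fixComm hD hG, ∀ C, (ψ C).1.1 = adj (RingHom.id F) G C.1.1 * C.1.1 := by
  have hadj : ∀ C : unipComm hD, adj (RingHom.id F) G C.1.1 * D = D * adj (RingHom.id F) G C.1.1 ∧
      IsNilpotent (adj (RingHom.id F) G C.1.1 - algebraMap F _ 1) := fun C => by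
    obtain ⟨v, hv⟩ := hD.exists_rpoly C.2.1
    have h0 : v ⟨0, hD.pos⟩ = 1 := hD.coeff_zero (hv ▸ C.2.2)
    rw [hv, adj_rpoly hG hs]
    refine ⟨rpoly_commute _, ?_⟩
    have h := hD.nil_sub (sgn v)
    rwa [show sgn v ⟨0, hD.pos⟩ = 1 by simp [sgn, h0]] at h
  have hz : ∀ C : unipComm hD, ∃ E : fixComm hD hG, E.1.1 = adj (RingHom.id F) G C.1.1 * C.1.1 := by
    intro C
    have hu : IsUnit (adj (RingHom.id F) G C.1.1 * C.1.1) := by
      refine IsUnit.mul ?_ C.1.isUnit
      have := (hadj C).2.isUnit_one_add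
      rwa [map_one, add_sub_cancel] at this
    refine ⟨⟨hu.unit, ⟨?_, ?_⟩, ?_⟩, rfl⟩
    · rw [IsUnit.unit_spec, mul_assoc, C.2.1, ← mul_assoc, (hadj C).1, mul_assoc]
    · rw [IsUnit.unit_spec]
      have := nil_mul_sub (hD.commute (hadj C).1 C.2.1) (hadj C).2 C.2.2
      rwa [one_mul] at this
    · rw [IsUnit.unit_spec, adj_mul _ hG, hskew]
  choose f hf using hz
  refine ⟨MonoidHom.mk' f fun B C => Subtype.ext (Units.ext ?_), hf⟩
  rw [Subgroup.coe_mul, Units.val_mul, hf, hf, hf, Subgroup.coe_mul, Units.val_mul, adj_mul _ hG]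
  have hcc := hD.commute (hadj C).1 (hadj B).1
  have hc2 := hD.commute (hadj C).1 B.2.1
  calc adj (RingHom.id F) G C.1.1 * adj (RingHom.id F) G B.1.1 * (B.1.1 * C.1.1)
      = adj (RingHom.id F) G B.1.1 * (adj (RingHom.id F) G C.1.1 * B.1.1) * C.1.1 := by
        rw [hcc.eq]; simp only [mul_assoc]
    _ = _ := by rw [hc2.eq]; simp only [mul_assoc]

theorem ringChar_dvd_odd (h2 : (2 : F) ≠ 0) : Odd (Nat.card F) := by
  haveI := Fintype.ofFinite F
  rw [Nat.card_eq_fintype_card]
  refine Nat.odd_iff.2 (FiniteField.odd_card_of_char_ne_two fun h => h2 ?_)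
  haveI : CharP F 2 := h ▸ ringChar.charP F
  exact CharTwo.two_eq_zero

theorem norm_hom_surjective {m : ℕ} (hn : n = 2 * m) (h2 : (2 : F) ≠ 0) (hD : RegNil D n) (hG : IsUnit G.det)
    (hs : adj (RingHom.id F) G D = -D) {ψ : unipComm hD →* fixComm hD hG}
    (hψ : ∀ C, (ψ C).1.1 = adj (RingHom.id F) G C.1.1 * C.1.1) : Function.Surjective ψ := by
  intro E
  obtain ⟨y, hy⟩ : ∃ y : fixComm hD hG, y ^ 2 = E := by
    have hodd : Odd (Nat.card (fixComm hD hG)) := by
      rw [card_fixComm hn h2 hD hG hs]; exact (ringChar_dvd_odd h2).pow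
    obtain ⟨k, hk⟩ := hodd
    refine ⟨E ^ (k + 1), ?_⟩
    rw [← pow_mul, show (k + 1) * 2 = Nat.card (fixComm hD hG) + 1 by omega, pow_succ, pow_card_eq_one', one_mul]
  refine ⟨⟨y.1, y.2.1⟩, Subtype.ext (Units.ext ?_)⟩
  rw [hψ]
  show adj (RingHom.id F) G y.1.1 * y.1.1 = E.1.1
  rw [y.2.2, ← hy, sq]
  rfl

theorem card_norm_ker {m : ℕ} (hn : n = 2 * m) (h2 : (2 : F) ≠ 0) (hD : RegNil D n) (hG : IsUnit G.det)
    (hs : adj (RingHom.id F) G D = -D) {ψ : unipComm hD →* fixComm hD hG}
    (hψ : ∀ C, (ψ C).1.1 = adj (RingHom.id F) G C.1.1 * C.1.1) : Nat.card ψ.ker = Nat.card F ^ m := by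
  have h := Subgroup.card_eq_card_quotient_mul_card_subgroup ψ.ker
  rw [Nat.card_congr (QuotientGroup.quotientKerEquivOfSurjective _ (norm_hom_surjective hn h2 hD hG hs hψ)).toEquiv,
    card_unipComm, card_fixComm hn h2 hD hG hs] at h
  have := hD.pos
  rw [show n - 1 = (m - 1) + m by omega, pow_add] at h
  exact (Nat.eq_of_mul_eq_mul_left (Nat.pow_pos Nat.card_pos) h).symm

end CfsgLib.FormConj
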