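import Cfsg.Agent.FormConj.Unitary
import Cfsg.Agent.GLOrders.Regular
import Mathlib.GroupTheory.Index
import Mathlib.GroupTheory.SpecificGroups.Cyclic

/-!
Regular unipotent classes of the special unitary group.
-/

set_option autoImplicit false

open Matrix

namespace CfsgLib.FormConj

/-- Splitting of one class in the kernel of an abelian-valued homomorphism. -/
theorem card_split_classes {G A H : Type*} [Group G] [CommGroup A] [Group H] (D : G →* A) (hD : Function.Surjective D)
    (ι : H →* G) (hι : Function.Injective ι) (hr : ι.range = D.ker) (u : G) (hu : D u = 1) (P : H → Prop)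
    (hP : ∀ h, P h ↔ IsConj u (ι h)) :
    Nat.card {C : ConjClasses H // ∃ h : H, ConjClasses.mk h = C ∧ P h} =
      ((Subgroup.centralizer {u}).map D).index := by
  classical
  set R := (Subgroup.centralizer {u}).map D
  have hmem : ∀ g : G, D g = 1 → ∃ h, ι h = g := fun g hg => by
    rwa [← MonoidHom.mem_range, hr, MonoidHom.mem_ker]
  have hex : ∀ g : G, ∃ h, ι h = g * u * g⁻¹ := fun g => hmem _ (by rw [map_mul, map_mul, hu, mul_one, map_inv, mul_inv_cancel])
  choose ψ hψ using hex
  have hiff : ∀ g k : G, ConjClasses.mk (ψ g) = ConjClasses.mk (ψ k) ↔ (D g)⁻¹ * D k ∈ R := by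
    intro g k
    rw [ConjClasses.mk_eq_mk_iff_isConj, isConj_iff]
    constructor
    · rintro ⟨c, hc⟩
      have h1 := congrArg ι hc
      rw [map_mul, map_mul, map_inv, hψ, hψ] at h1
      refine ⟨g⁻¹ * (ι c)⁻¹ * k, Subgroup.mem_centralizer_singleton_iff.2 ?_, ?_⟩
      · have h2 : k * u = ι c * (g * u * g⁻¹) * (ι c)⁻¹ * k := by rw [h1, inv_mul_cancel_right]
        rw [mul_assoc _ k u, h2]
        group
      · have hc1 : D (ι c) = 1 := MonoidHom.mem_ker.1 (hr ▸ ⟨c, rfl⟩)
        rw [map_mul, map_mul, map_inv, map_inv, hc1, inv_one, mul_one]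
    · rintro ⟨z, hz, hzD⟩
      obtain ⟨c, hc⟩ := hmem (k * z⁻¹ * g⁻¹) (by
        rw [map_mul, map_mul, map_inv, map_inv, hzD]
        group)
      refine ⟨c, hι ?_⟩
      rw [map_mul, map_mul, map_inv, hψ, hψ, hc]
      have hz' : z⁻¹ * u = u * z⁻¹ := by
        rw [inv_mul_eq_iff_eq_mul, ← mul_assoc, Subgroup.mem_centralizer_singleton_iff.1 hz, mul_inv_cancel_right]
      calc k * z⁻¹ * g⁻¹ * (g * u * g⁻¹) * (k * z⁻¹ * g⁻¹)⁻¹ = k * (z⁻¹ * u) * z * k⁻¹ := by group
        _ = k * u * k⁻¹ := by rw [hz']; group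
  let φ : A → {C : ConjClasses H // ∃ h : H, ConjClasses.mk h = C ∧ P h} := fun a =>
    ⟨ConjClasses.mk (ψ (Function.surjInv hD a)), _, rfl, (hP _).2 (by rw [hψ]; exact isConj_iff.2 ⟨_, rfl⟩)⟩
  have hφ : ∀ a b, φ a = φ b ↔ a⁻¹ * b ∈ R := fun a b => by
    rw [Subtype.ext_iff]
    show ConjClasses.mk _ = ConjClasses.mk _ ↔ _
    rw [hiff, Function.surjInv_eq hD, Function.surjInv_eq hD]
  have hsurj : Function.Surjective φ := fun ⟨C, h, hC, hPh⟩ => by
    obtain ⟨g, hg⟩ := isConj_iff.1 ((hP h).1 hPh)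
    refine ⟨D g, Subtype.ext ?_⟩
    show ConjClasses.mk (ψ _) = C
    rw [← hC, show h = ψ g from hι (by rw [hψ, hg]), hiff, Function.surjInv_eq hD, inv_mul_cancel]
    exact one_mem _
  rw [Subgroup.index_eq_card]
  refine (Nat.card_eq_of_bijective (Quotient.lift φ fun a b h => (hφ a b).2 (QuotientGroup.leftRel_apply.1 h)) ⟨?_, ?_⟩).symm
  · intro x y
    refine Quotient.inductionOn₂ x y fun a b h => Quotient.sound (QuotientGroup.leftRel_apply.2 ((hφ a b).1 h))
  · intro C
    obtain ⟨a, rfl⟩ := hsurj C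
    exact ⟨Quotient.mk _ a, rfl⟩

variable {K : Type*} [Field K] {n : ℕ}

/-- An element commuting with a regular nilpotent matrix is scalar plus nilpotent. -/
theorem exists_scalar_of_commute (hn : 1 ≤ n) {N C : Matrix (Fin n) (Fin n) K} (hN : N ^ n = 0) (hr : N.rank = n - 1)
    (hC : C * N = N * C) :
    ∃ v, C.det = v ^ n ∧ IsNilpotent (C - algebraMap K (Matrix (Fin n) (Fin n) K) v) := by
  obtain ⟨P, hP⟩ := CfsgLib.GLOrders.exists_conj_shiftMat hn N hN hr
  obtain ⟨T, hT⟩ : ∃ T, T = (P⁻¹ : GL (Fin n) K).1 * C * P.1 := ⟨_, rfl⟩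
  have hS : CfsgLib.GLOrders.shiftMat K n = (P⁻¹ : GL (Fin n) K).1 * N * P.1 := by
    rw [mul_assoc, hP, Units.inv_mul_cancel_left]
  have hTc : T * CfsgLib.GLOrders.shiftMat K n = CfsgLib.GLOrders.shiftMat K n * T := by
    rw [hT, hS]
    simp only [mul_assoc, Units.mul_inv_cancel_left]
    rw [← mul_assoc C, hC, mul_assoc]
  have hT' := (CfsgLib.GLOrders.commute_shiftMat_iff hn T).1 hTc
  set v := T ⟨0, hn⟩ ⟨0, hn⟩ with hv
  refine ⟨v, ?_, ?_⟩
  · have h1 := congrArg Matrix.det hT'
    rw [CfsgLib.GLOrders.det_toeplitz hn] at h1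
    rw [← h1, hT, Matrix.det_units_conj']
  · have hd : (T - algebraMap K _ v).charpoly = Polynomial.X ^ n := by
      have hlow : (T - algebraMap K (Matrix (Fin n) (Fin n) K) v).BlockTriangular OrderDual.toDual := fun i j hij => by
        have h' : i < j := hij
        rw [hT', Matrix.sub_apply, Matrix.algebraMap_matrix_apply, if_neg h'.ne, sub_zero]
        exact if_neg (by have : i.val < j.val := h'; omega)
      rw [← Matrix.charpoly_transpose]
      rw [Matrix.charpoly_of_isUpperTriangular (T - algebraMap K (Matrix (Fin n) (Fin n) K) v)ᵀ hlow.transpose]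
      rw [Finset.prod_eq_pow_card (b := (Polynomial.X : Polynomial K)) fun i _ => ?_, Finset.card_univ, Fintype.card_fin]
      rw [Matrix.transpose_apply, Matrix.sub_apply, Matrix.algebraMap_matrix_apply, if_pos rfl, hT']
      show Polynomial.X - Polynomial.C ((if i.val ≤ i.val then _ else 0) - v) = _
      rw [if_pos le_rfl, show (⟨i.val - i.val, by omega⟩ : Fin n) = ⟨0, hn⟩ from Fin.ext (Nat.sub_self _)]
      rw [hv, sub_self, map_zero, sub_zero]
    have h0 : (T - algebraMap K _ v) ^ n = 0 := by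
      have h := Matrix.aeval_self_charpoly (T - algebraMap K (Matrix (Fin n) (Fin n) K) v)
      rwa [hd, map_pow, Polynomial.aeval_X] at h
    refine ⟨n, ?_⟩
    have e : C - algebraMap K _ v = P.1 * (T - algebraMap K _ v) * (P⁻¹ : GL (Fin n) K).1 := by
      rw [hT, mul_sub, sub_mul, ← Algebra.commutes, mul_assoc (algebraMap K (Matrix (Fin n) (Fin n) K) v),
        Units.mul_inv, mul_one]
      simp only [mul_assoc, Units.mul_inv, mul_one, Units.mul_inv_cancel_left]
    rw [e, Units.conj_pow, h0, mul_zero, zero_mul]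

variable [Finite K] {θ : K →+* K}

/-- The determinant of a unitary element commuting with a regular unipotent one. -/
theorem det_of_commute (hn : 1 ≤ n) {N C : Matrix (Fin n) (Fin n) K} (hN : N ^ n = 0) (hr : N.rank = n - 1)
    (hC : C * N = N * C) (hCu : dag θ C * C = 1) : ∃ v, θ v * v = 1 ∧ C.det = v ^ n := by
  obtain ⟨v, hvd, hvn⟩ := exists_scalar_of_commute hn hN hr hC
  refine ⟨v, ?_, hvd⟩
  have hv0 : v ≠ 0 := by
    rintro rfl
    rw [zero_pow (by omega)] at hvd
    exact (Matrix.isUnit_det_of_left_inverse hCu).ne_zero hvd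
  obtain ⟨X, hX⟩ : ∃ X, X = C - algebraMap K _ v := ⟨_, rfl⟩
  rw [← hX] at hvn
  have hd : dag θ C = algebraMap K _ (θ v) + dag θ X := by
    rw [show C = algebraMap K _ v + X by rw [hX, add_sub_cancel], dag_add, dag_algebraMap]
  have hdn : IsNilpotent (dag θ X) := by
    obtain ⟨k, hk⟩ := hvn
    have hpow : ∀ m, dag θ X ^ m = dag θ (X ^ m) := fun m => by
      induction m with
      | zero => rw [pow_zero, pow_zero, dag_one]
      | succ m ih => rw [pow_succ, ih, pow_succ', dag_mul]
    exact ⟨k, by rw [hpow, hk]; ext i j; simp [dag]⟩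
  have hcomm : Commute (dag θ C) C := by
    show _ = _
    rw [hCu, mul_eq_one_comm.1 hCu]
  have hcX : Commute (dag θ X) X := by
    have e1 : dag θ X = dag θ C - algebraMap K _ (θ v) := by rw [hd, add_sub_cancel_left]
    rw [e1, hX]
    exact (hcomm.sub_left (Algebra.commutes _ _)).sub_right ((Algebra.commutes _ _).symm)
  have key : (algebraMap K (Matrix (Fin n) (Fin n) K) (θ v * v - 1)) =
      -(algebraMap K _ (θ v) * X + dag θ X * algebraMap K _ v + dag θ X * X) := by
    have := hCu
    rw [hd, show C = algebraMap K _ v + X by rw [hX, add_sub_cancel], add_mul, mul_add, mul_add, ← map_mul] at this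
    rw [map_sub, map_one]
    linear_combination (norm := abel) this
  have hnil : IsNilpotent (algebraMap K (Matrix (Fin n) (Fin n) K) (θ v * v - 1)) := by
    rw [key]
    have ca := fun (a : K) (M : Matrix (Fin n) (Fin n) K) => Algebra.commute_algebraMap_left a M
    refine IsNilpotent.neg (Commute.isNilpotent_add ?_ (Commute.isNilpotent_add ?_ ?_ ?_) ?_)
    · exact ((ca _ _).mul_left (hcX.symm.mul_right (Commute.refl X))).add_left
        (((Commute.refl (dag θ X)).mul_right hcX).mul_left (ca _ _))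
    · exact (ca _ _).mul_left (hcX.symm.mul_right (ca v X).symm)
    · exact (ca _ _).isNilpotent_mul_left hvn
    · exact (ca v _).symm.isNilpotent_mul_right hdn
    · exact hcX.isNilpotent_mul_left hvn
  haveI : Nonempty (Fin n) := ⟨⟨0, hn⟩⟩
  exact sub_eq_zero.1 ((IsNilpotent.map_iff (FaithfulSMul.algebraMap_injective K (Matrix (Fin n) (Fin n) K))).1 hnil).eq_zero

end CfsgLib.FormConj
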