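import Cfsg.Agent.FormConj.RegComm

/-!
Regular unipotent isometries in odd characteristic: centraliser and similitude conjugacy.
-/

set_option autoImplicit false

open Matrix

namespace CfsgLib.FormConj

variable {F : Type*} [Field F] [Finite F] {ι : Type*} [Fintype ι] [DecidableEq ι] {n m : ℕ} {G u : Matrix ι ι F}

/-- The skew element of an isometry. -/
noncomputable def skewPart (u : Matrix ι ι F) : Matrix ι ι F := u - u⁻¹

omit [Finite F] in
theorem adj_isometry (hG : IsUnit G.det) (hu : uᵀ * G * u = G) : adj (RingHom.id F) G u = u⁻¹ := by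
  refine (Matrix.inv_eq_left_inv ?_).symm
  rw [adj, dag_id, Matrix.mul_assoc, Matrix.mul_assoc, ← Matrix.mul_assoc uᵀ, hu, Matrix.nonsing_inv_mul _ hG]

omit [Finite F] in
theorem isUnit_det_of_nil {u : Matrix ι ι F} (h : IsNilpotent (u - 1)) : IsUnit u.det := by
  rw [← Matrix.isUnit_iff_isUnit_det, show u = 1 + (u - 1) by rw [add_sub_cancel]]
  exact h.isUnit_one_add

omit [Finite F] in
theorem adj_adj_alt (hG : IsUnit G.det) (ha : ∀ x, x ⬝ᵥ (G *ᵥ x) = 0) (C : Matrix ι ι F) :
    adj (RingHom.id F) G (adj (RingHom.id F) G C) = C := by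
  have hs := alt_transpose ha
  rw [neg_one_smul] at hs
  have hni : (-G)⁻¹ = -G⁻¹ := Matrix.inv_eq_left_inv (by rw [neg_mul_neg, Matrix.nonsing_inv_mul _ hG])
  simp only [adj, dag_id, Matrix.transpose_mul, Matrix.transpose_transpose, Matrix.transpose_nonsing_inv, hs,
    hni, Matrix.neg_mul, Matrix.mul_neg, neg_neg]
  simp only [Matrix.mul_assoc, Matrix.nonsing_inv_mul _ hG, Matrix.mul_one,
    Matrix.nonsing_inv_mul_cancel_left _ _ hG]

variable (hn : n = 2 * m) (h2 : (2 : F) ≠ 0) (hcard : Fintype.card ι = n) (hpos : 1 ≤ n)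
  (hnil : (u - 1) ^ n = 0) (hrk : (u - 1).rank = n - 1)

omit [Finite F] in
include h2 hcard hpos hnil hrk in
theorem regNil_skew : RegNil (skewPart u) n := by
  have hu : IsUnit u.det := isUnit_det_of_nil ⟨n, hnil⟩
  have hN : IsNilpotent (u - 1) := ⟨n, hnil⟩
  obtain ⟨U, hU⟩ : ∃ U, U = u⁻¹ * ((u - 1) + algebraMap F _ 2) := ⟨_, rfl⟩
  have hUu : IsUnit U.det := by
    rw [hU, Matrix.det_mul]
    refine (Matrix.isUnit_nonsing_inv_det _ hu).mul ((Matrix.isUnit_iff_isUnit_det _).1 ?_)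
    exact hN.isUnit_add_right_of_commute ((Ne.isUnit h2).map _) (Algebra.commute_algebraMap_right _ _)
  have e : skewPart u = (u - 1) * U := by
    rw [hU, ← Matrix.mul_assoc, Matrix.sub_mul u 1, Matrix.one_mul, Matrix.mul_nonsing_inv _ hu, skewPart,
      map_ofNat, show u - 1 + (2 : Matrix ι ι F) = u + 1 by rw [← one_add_one_eq_two]; abel,
      Matrix.sub_mul, Matrix.one_mul, Matrix.mul_add, Matrix.nonsing_inv_mul _ hu, Matrix.mul_one]
    abel
  have hc : Commute (u - 1) U := by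
    rw [hU]
    refine Commute.mul_right (Commute.sub_left ?_ (Commute.one_left _))
      ((Commute.refl _).add_right (Algebra.commute_algebraMap_right _ _))
    show _ = _
    rw [Matrix.nonsing_inv_mul _ hu, Matrix.mul_nonsing_inv _ hu]
  exact ⟨hpos, hcard, by rw [e, hc.mul_pow, hnil, Matrix.zero_mul],
    by rw [e, Matrix.rank_mul_eq_left_of_isUnit_det _ _ hUu, hrk]⟩

omit [Finite F] in
theorem adj_skew (hG : IsUnit G.det) (ha : ∀ x, x ⬝ᵥ (G *ᵥ x) = 0) (hu : uᵀ * G * u = G) :
    adj (RingHom.id F) G (skewPart u) = -skewPart u := by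
  rw [skewPart, adj_sub', adj_isometry hG hu, show adj (RingHom.id F) G u⁻¹ = u by
    conv_lhs => rw [← adj_isometry hG hu, adj_adj_alt hG ha], neg_sub]

omit [Finite F] in
include h2 hcard hpos hnil hrk in
theorem commute_skew_iff {C : Matrix ι ι F} : C * skewPart u = skewPart u * C ↔ C * u = u * C := by
  have hu : IsUnit u.det := isUnit_det_of_nil ⟨n, hnil⟩
  have hcu : Commute u u⁻¹ := by
    show _ = _
    rw [Matrix.nonsing_inv_mul _ hu, Matrix.mul_nonsing_inv _ hu]
  constructor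
  · intro h
    exact (regNil_skew h2 hcard hpos hnil hrk).commute h ((Commute.refl u).sub_right hcu).eq
  · intro h
    have h' : Commute C u⁻¹ := by
      calc C * u⁻¹ = u⁻¹ * (u * C) * u⁻¹ := by rw [Matrix.nonsing_inv_mul_cancel_left _ _ hu]
        _ = u⁻¹ * C := by rw [← h, Matrix.mul_assoc, Matrix.mul_assoc, Matrix.mul_nonsing_inv _ hu, Matrix.mul_one]
    exact (Commute.sub_right h h').eq

omit [Finite F] in
/-- Residues. -/
theorem exists_residue {D : Matrix ι ι F} (hD : RegNil D n) (hG : IsUnit G.det)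
    (hs : adj (RingHom.id F) G D = -D) {C : Matrix ι ι F} (hC : C * D = D * C) :
    ∃ c, IsNilpotent (C - algebraMap F _ c) ∧ IsNilpotent (adj (RingHom.id F) G C - algebraMap F _ c) ∧
      Commute (adj (RingHom.id F) G C) C := by
  obtain ⟨v, hv⟩ := hD.exists_rpoly hC
  refine ⟨v ⟨0, hD.pos⟩, hv ▸ hD.nil_sub v, ?_, ?_⟩
  · rw [hv, adj_rpoly hG hs]
    have h := hD.nil_sub (sgn v)
    rwa [show sgn v ⟨0, hD.pos⟩ = v ⟨0, hD.pos⟩ by simp [sgn]] at h
  · rw [hv, adj_rpoly hG hs]; exact commute_rpoly _ _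

omit [Finite F] in
/-- The multiplier of a similitude in the commutant is a square. -/
theorem sq_residue {D : Matrix ι ι F} (hD : RegNil D n) (hG : IsUnit G.det)
    (hs : adj (RingHom.id F) G D = -D) {C : Matrix ι ι F} (hC : C * D = D * C) {l : F}
    (hl : Cᵀ * G * C = l • G) : ∃ c, IsNilpotent (C - algebraMap F _ c) ∧ c * c = l := by
  obtain ⟨c, hc1, hc2, hcc⟩ := exists_residue hD hG hs hC
  refine ⟨c, hc1, ?_⟩
  have h := nil_mul_sub hcc hc2 hc1
  rw [show adj (RingHom.id F) G C * C = algebraMap F _ l by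
    rw [adj, dag_id, Matrix.mul_assoc, Matrix.mul_assoc, ← Matrix.mul_assoc Cᵀ, hl, Matrix.mul_smul,
      Matrix.nonsing_inv_mul _ hG, Algebra.algebraMap_eq_smul_one]] at h
  haveI : Nonempty ι := Fintype.card_pos_iff.1 (by rw [hD.card]; exact hD.pos)
  exact eq_of_nil_sub h (by simp)

include hn h2 hcard hpos hnil hrk in
/-- The centraliser of a regular unipotent isometry. -/
theorem card_centralizer (hG : IsUnit G.det) (ha : ∀ x, x ⬝ᵥ (G *ᵥ x) = 0) (hu : uᵀ * G * u = G) :
    Nat.card {C : Matrix ι ι F // Cᵀ * G * C = G ∧ C * u = u * C} = 2 * Nat.card F ^ m := by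
  classical
  have hD := regNil_skew h2 hcard hpos hnil hrk
  have hs := adj_skew hG ha hu
  obtain ⟨ψ, hψ⟩ := exists_norm_hom hD hG hs (adj_adj_alt hG ha)
  have hker : ∀ C : unipComm hD, C ∈ ψ.ker ↔ C.1.1ᵀ * G * C.1.1 = G := fun C => by
    rw [MonoidHom.mem_ker, Subtype.ext_iff, Units.ext_iff, hψ, adj, dag_id]
    refine ⟨fun h => ?_, fun h => ?_⟩
    · have h' := congrArg (fun M => G * M) h
      simp only [Matrix.mul_assoc, Matrix.mul_nonsing_inv_cancel_left _ _ hG] at h'
      rw [Matrix.mul_assoc, h']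
      exact Matrix.mul_one G
    · rw [Matrix.mul_assoc, Matrix.mul_assoc, ← Matrix.mul_assoc (C.1.1ᵀ), h, Matrix.nonsing_inv_mul _ hG]
      rfl
  haveI : Nonempty ι := Fintype.card_pos_iff.1 (by rw [hcard]; exact hpos)
  let f : Bool × ψ.ker → {C : Matrix ι ι F // Cᵀ * G * C = G ∧ C * u = u * C} := fun x =>
    ⟨(if x.1 then (1 : F) else -1) • x.2.1.1.1, by
      refine ⟨?_, ?_⟩
      · rw [Matrix.transpose_smul, Matrix.smul_mul, Matrix.smul_mul, Matrix.mul_smul, smul_smul, (hker _).1 x.2.2]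
        split <;> simp
      · rw [Matrix.smul_mul, Matrix.mul_smul, (commute_skew_iff h2 hcard hpos hnil hrk).1 x.2.1.2.1]⟩
  have hbij : Function.Bijective f := by
    refine ⟨fun x y e => ?_, fun ⟨C, hC1, hC2⟩ => ?_⟩
    · have e' : (if x.1 then (1 : F) else -1) • x.2.1.1.1 = (if y.1 then (1 : F) else -1) • y.2.1.1.1 :=
        congrArg Subtype.val e
      have hres : ∀ z : Bool × ψ.ker, IsNilpotent ((if z.1 then (1 : F) else -1) • z.2.1.1.1 -
          algebraMap F _ (if z.1 then (1 : F) else -1)) := fun z => by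
        rw [Algebra.algebraMap_eq_smul_one, ← smul_sub]
        refine IsNilpotent.smul ?_ _
        have := z.2.1.2.2
        rwa [map_one] at this
      have hb : x.1 = y.1 := by
        have h := eq_of_nil_sub (hres x) (e' ▸ hres y)
        cases hx : x.1 <;> cases hy : y.1 <;> simp only [hx, hy] at h ⊢ <;>
          first
            | exact absurd (show (2 : F) = 0 by simp at h; linear_combination h) h2
            | exact absurd (show (2 : F) = 0 by simp at h; linear_combination -h) h2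
      refine Prod.ext hb (Subtype.ext (Subtype.ext (Units.ext ?_)))
      rw [hb] at e'
      exact smul_right_injective (Matrix ι ι F) (by split <;> simp) e'
    · have hCD := (commute_skew_iff h2 hcard hpos hnil hrk).2 hC2
      obtain ⟨c, hc, hcc⟩ := sq_residue hD hG hs hCD (l := 1) (by rw [one_smul]; exact hC1)
      have hc1 : c = 1 ∨ c = -1 := mul_self_eq_one_iff.1 hcc
      obtain ⟨C', hC'⟩ : ∃ C', C' = c • C := ⟨_, rfl⟩
      have hres : IsNilpotent (C' - algebraMap F _ 1) := by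
        rw [← hcc, Algebra.algebraMap_eq_smul_one, mul_smul, hC', ← smul_sub, ← Algebra.algebraMap_eq_smul_one]
        exact hc.smul _
      have hCu' : IsUnit C' := by
        have := hres.isUnit_one_add
        rwa [map_one, add_sub_cancel] at this
      let Cu : unipComm hD := ⟨hCu'.unit, by
        show C' * skewPart u = skewPart u * C'
        rw [hC', Matrix.smul_mul, Matrix.mul_smul, hCD], hres⟩
      have hk : Cu ∈ ψ.ker := (hker Cu).2 (by
        show C'ᵀ * G * C' = G
        rw [hC', Matrix.transpose_smul, Matrix.smul_mul, Matrix.smul_mul, Matrix.mul_smul, smul_smul, hcc, one_smul, hC1])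
      refine ⟨(decide (c = 1), ⟨Cu, hk⟩), Subtype.ext ?_⟩
      show (if decide (c = 1) then (1 : F) else -1) • C' = C
      rw [show (if decide (c = 1) then (1 : F) else -1) = c by
        rcases hc1 with rfl | rfl
        · simp
        · simp [show (-1 : F) ≠ 1 from fun h => h2 (by linear_combination -h)],
        hC', smul_smul, hcc, one_smul]
  rw [← Nat.card_eq_of_bijective f hbij, Nat.card_prod, card_norm_ker hn h2 hD hG hs hψ]
  simp

include hn h2 hcard hpos hnil hrk in
/-- Regular unipotent isometries are conjugate by a similitude. -/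
theorem exists_similitude_conj (hG : IsUnit G.det) (ha : ∀ x, x ⬝ᵥ (G *ᵥ x) = 0) (hu : uᵀ * G * u = G)
    {w P : Matrix ι ι F} (hw : wᵀ * G * w = G) (hP : IsUnit P.det) (hPu : P * u = w * P) :
    ∃ g : Matrix ι ι F, ∃ l : F, l ≠ 0 ∧ gᵀ * G * g = l • G ∧ g * u = w * g := by
  classical
  have hD := regNil_skew h2 hcard hpos hnil hrk
  have hs := adj_skew hG ha hu
  have huu := isUnit_det_of_nil ⟨n, hnil⟩
  obtain ⟨G', hG'⟩ : ∃ G', G' = Pᵀ * G * P := ⟨_, rfl⟩
  have hG'u : IsUnit G'.det := hG' ▸ isUnit_congr hG hP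
  have hA' : uᵀ * G' * u = G' := by
    calc uᵀ * G' * u = (P * u)ᵀ * G * (P * u) := by rw [hG', Matrix.transpose_mul]; simp only [Matrix.mul_assoc]
      _ = Pᵀ * (wᵀ * G * w) * P := by rw [hPu, Matrix.transpose_mul]; simp only [Matrix.mul_assoc]
      _ = G' := by rw [hw, hG']
  obtain ⟨h, hh⟩ : ∃ h, h = G⁻¹ * G' := ⟨_, rfl⟩
  have hhu : IsUnit h.det := by rw [hh, Matrix.det_mul]; exact (Matrix.isUnit_nonsing_inv_det _ hG).mul hG'u
  have hcu : h * u = u * h := by
    have e1 : uᵀ = G * u⁻¹ * G⁻¹ := by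
      have := congrArg (fun M => M * u⁻¹ * G⁻¹) hu
      simp only [Matrix.mul_assoc, Matrix.mul_nonsing_inv _ hG, Matrix.mul_one,
        Matrix.mul_nonsing_inv_cancel_left _ _ huu] at this
      rw [this, Matrix.mul_assoc]
    rw [e1] at hA'
    have := congrArg (fun M => u * (G⁻¹ * M)) hA'
    simp only [Matrix.mul_assoc, Matrix.nonsing_inv_mul_cancel_left _ _ hG,
      Matrix.mul_nonsing_inv_cancel_left _ _ huu] at this
    rw [hh, ← this, Matrix.mul_assoc]
  have hfix : adj (RingHom.id F) G h = h := by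
    have h1 : hᵀ * Gᵀ = G'ᵀ := by rw [← Matrix.transpose_mul, hh, Matrix.mul_nonsing_inv_cancel_left _ _ hG]
    rw [alt_transpose ha, show G'ᵀ = (-1 : F) • G' from hG' ▸ alt_transpose (alt_congr ha P), Matrix.mul_smul] at h1
    rw [adj, dag_id, Matrix.mul_assoc, smul_right_injective (Matrix ι ι F) (neg_ne_zero.2 one_ne_zero) h1, hh]
  have hhD := (commute_skew_iff h2 hcard hpos hnil hrk).2 hcu
  obtain ⟨c, hc, -, -⟩ := exists_residue hD hG hs hhD
  haveI : Nonempty ι := Fintype.card_pos_iff.1 (by rw [hcard]; exact hpos)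
  have hc0 : c ≠ 0 := fun h0 => by
    rw [h0, map_zero, sub_zero] at hc
    obtain ⟨k, hk⟩ := hc
    have h' := ((Matrix.isUnit_iff_isUnit_det h).2 hhu).pow k
    rw [hk] at h'
    exact not_isUnit_zero h'
  obtain ⟨h', hh'⟩ : ∃ h', h' = c⁻¹ • h := ⟨_, rfl⟩
  have hres : IsNilpotent (h' - algebraMap F _ 1) := by
    rw [← inv_mul_cancel₀ hc0, Algebra.algebraMap_eq_smul_one, mul_smul, hh', ← smul_sub, ← Algebra.algebraMap_eq_smul_one]
    exact hc.smul _
  have hu' : IsUnit h' := by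
    have := hres.isUnit_one_add
    rwa [map_one, add_sub_cancel] at this
  let E : fixComm hD hG := ⟨hu'.unit, ⟨by
    show h' * skewPart u = skewPart u * h'
    rw [hh', Matrix.smul_mul, Matrix.mul_smul, hhD], hres⟩, by
    show adj (RingHom.id F) G h' = h'
    rw [hh', adj, dag_smul, RingHom.id_apply, Matrix.mul_smul, Matrix.smul_mul]
    exact congrArg (c⁻¹ • ·) hfix⟩
  obtain ⟨ψ, hψ⟩ := exists_norm_hom hD hG hs (adj_adj_alt hG ha)
  obtain ⟨y, hy⟩ := norm_hom_surjective hn h2 hD hG hs hψ E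
  have hy' : y.1.1ᵀ * G * y.1.1 = c⁻¹ • G' := by
    have h1 := congrArg (fun E : fixComm hD hG => G * E.1.1) hy
    simp only [hψ, adj, dag_id, Matrix.mul_assoc, Matrix.mul_nonsing_inv_cancel_left _ _ hG] at h1
    rw [Matrix.mul_assoc, h1]
    show G * h' = _
    rw [hh', Matrix.mul_smul, hh, Matrix.mul_nonsing_inv_cancel_left _ _ hG]
  have hyu : IsUnit y.1.1.det := Matrix.isUnits_det_units y.1
  refine ⟨P * y.1.1⁻¹, c, hc0, ?_, ?_⟩
  · calc (P * y.1.1⁻¹)ᵀ * G * (P * y.1.1⁻¹) = y.1.1⁻¹ᵀ * G' * y.1.1⁻¹ := by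
          rw [hG', Matrix.transpose_mul]; simp only [Matrix.mul_assoc]
      _ = c • (y.1.1⁻¹ᵀ * (c⁻¹ • G') * y.1.1⁻¹) := by
          rw [Matrix.mul_smul, Matrix.smul_mul, smul_smul, mul_inv_cancel₀ hc0, one_smul]
      _ = c • ((y.1.1 * y.1.1⁻¹)ᵀ * G * (y.1.1 * y.1.1⁻¹)) := by
          rw [← hy', Matrix.transpose_mul y.1.1]; simp only [Matrix.mul_assoc]
      _ = c • G := by rw [Matrix.mul_nonsing_inv _ hyu, Matrix.transpose_one, Matrix.one_mul, Matrix.mul_one]
  · have hyc : y.1.1 * u = u * y.1.1 := (commute_skew_iff h2 hcard hpos hnil hrk).1 y.2.1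
    have hyi : y.1.1⁻¹ * u = u * y.1.1⁻¹ := by
      calc y.1.1⁻¹ * u = y.1.1⁻¹ * (u * y.1.1) * y.1.1⁻¹ := by
            rw [Matrix.mul_assoc, Matrix.mul_assoc, Matrix.mul_nonsing_inv _ hyu, Matrix.mul_one]
        _ = u * y.1.1⁻¹ := by rw [← hyc, Matrix.nonsing_inv_mul_cancel_left _ _ hyu]
    rw [Matrix.mul_assoc, hyi, ← Matrix.mul_assoc, hPu, Matrix.mul_assoc]

end CfsgLib.FormConj
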