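import Cfsg.Agent.FormConj.Unitary
import Cfsg.Agent.H29.Semisimple
import Mathlib

/-!
Unitary elements of every norm-one determinant commuting with a semisimple unitary element.
-/

set_option autoImplicit false
set_option linter.style.haveILetI false

open Matrix Module Polynomial

namespace CfsgLib.FormConj.Semi

variable {K : Type*} [Field K] [Finite K] {n : ℕ} {θ : K →+* K}

local notation "V" => Fin n → K

/-- The standard sesquilinear form. -/
def herm (θ : K →+* K) (u v : V) : K := (θ ∘ u) ⬝ᵥ v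

omit [Finite K] in
theorem herm_add_left (u u' v : V) : herm θ (u + u') v = herm θ u v + herm θ u' v := by
  rw [herm, herm, herm, ← add_dotProduct]
  congr 1
  funext i
  exact map_add θ _ _

omit [Finite K] in
theorem herm_add_right (u v v' : V) : herm θ u (v + v') = herm θ u v + herm θ u v' := dotProduct_add _ _ _

omit [Finite K] in
theorem herm_smul_right (c : K) (u v : V) : herm θ u (c • v) = c * herm θ u v := dotProduct_smul _ _ _

omit [Finite K] in
theorem herm_zero_right (u : V) : herm θ u 0 = 0 := dotProduct_zero _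

omit [Finite K] in
theorem herm_zero_left (v : V) : herm θ (0 : V) v = 0 := by
  rw [herm, show θ ∘ (0 : V) = 0 from funext fun i => map_zero θ, zero_dotProduct]

omit [Finite K] in
theorem herm_symm (hθ : ∀ a, θ (θ a) = a) (u v : V) : herm θ v u = θ (herm θ u v) := by
  rw [herm, herm, RingHom.map_dotProduct, show θ ∘ θ ∘ u = u from funext fun i => hθ _, dotProduct_comm]

omit [Finite K] in
theorem herm_mulVec (hθ : ∀ a, θ (θ a) = a) (A : Matrix (Fin n) (Fin n) K) (u v : V) :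
    herm θ (A *ᵥ u) v = herm θ u (dag θ A *ᵥ v) := by
  rw [herm, herm, show θ ∘ (A *ᵥ u) = A.map θ *ᵥ (θ ∘ u) from funext fun i => RingHom.map_mulVec θ A u i,
    Matrix.dotProduct_mulVec, dag, Matrix.vecMul_transpose]

omit [Finite K] in
theorem eq_zero_of_herm (hθ : ∀ a, θ (θ a) = a) {v : V} (h : ∀ u, herm θ u v = 0) : v = 0 :=
  funext fun i => by
    have := h (Pi.single i 1)
    rw [herm, show θ ∘ (Pi.single i (1 : K) : V) = Pi.single i 1 from funext fun k => by
      simp [Pi.single_apply, apply_ite θ], single_one_dotProduct] at this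
    exact this

/-- The orthogonal complement. -/
def orth (θ : K →+* K) (W : Submodule K V) : Submodule K V where
  carrier := {v | ∀ w ∈ W, herm θ w v = 0}
  add_mem' {a b} ha hb w hw := by rw [herm_add_right, ha w hw, hb w hw, add_zero]
  zero_mem' w _ := herm_zero_right w
  smul_mem' c a ha w hw := by rw [herm_smul_right, ha w hw, mul_zero]

omit [Finite K] in
theorem isCompl_orth (W : Submodule K V) (h : W ⊓ orth θ W = ⊥) : IsCompl W (orth θ W) := by
  classical
  obtain ⟨L, hL⟩ : ∃ L : (Fin n → K) →ₗ[K] (Fin (finrank K W) → K),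
      ∀ v i, L v i = herm θ (Module.finBasis K W i : V) v :=
    ⟨LinearMap.pi fun i =>
      { toFun := fun v => herm θ (Module.finBasis K W i : V) v
        map_add' := fun a b => herm_add_right _ a b
        map_smul' := fun c a => herm_smul_right c _ a }, fun _ _ => rfl⟩
  have hker : LinearMap.ker L ≤ orth θ W := fun v hv w hw => by
    have h1 : ∀ i, herm θ (Module.finBasis K W i : V) v = 0 := fun i => by
      rw [← hL, LinearMap.mem_ker.mp hv]; rfl
    have h2 := (Module.finBasis K W).sum_repr ⟨w, hw⟩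
    have h3 : w = ∑ i, (Module.finBasis K W).repr ⟨w, hw⟩ i • (Module.finBasis K W i : V) := by
      have h4 := congrArg W.subtype h2
      rw [map_sum] at h4
      exact h4.symm
    rw [h3, herm, show θ ∘ (∑ i, (Module.finBasis K W).repr ⟨w, hw⟩ i • (Module.finBasis K W i : V)) =
      ∑ i, θ ((Module.finBasis K W).repr ⟨w, hw⟩ i) • (θ ∘ (Module.finBasis K W i : V)) from funext fun k => by
        simp [Finset.sum_apply, map_sum], sum_dotProduct]
    exact Finset.sum_eq_zero fun i _ => by rw [smul_dotProduct]; exact mul_eq_zero_of_right _ (h1 i)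
  have h1 := LinearMap.finrank_range_add_finrank_ker L
  have h2 := Submodule.finrank_mono hker
  have h3 := (LinearMap.range L).finrank_le
  have h4 := Submodule.finrank_sup_add_finrank_inf_eq W (orth θ W)
  rw [h, finrank_bot, add_zero] at h4
  rw [Module.finrank_fin_fun] at h1 h3
  refine ⟨disjoint_iff.mpr h, codisjoint_iff.mpr (Submodule.eq_top_of_finrank_eq ?_)⟩
  have h5 := (W ⊔ orth θ W).finrank_le
  rw [Module.finrank_fin_fun] at h5 ⊢
  omega

omit [Finite K] in
/-- Endomorphisms commuting with an irreducible one commute with each other. -/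
theorem commute_on {f g₁ g₂ : Module.End K V} {W : Submodule K V} (hW : ∀ v ∈ W, f v ∈ W)
    (hirr : ∀ U : Submodule K V, U ≤ W → (∀ v ∈ U, f v ∈ U) → U ≠ ⊥ → U = W)
    (h₁ : ∀ v ∈ W, g₁ v ∈ W) (h₂ : ∀ v ∈ W, g₂ v ∈ W) (c₁ : g₁ * f = f * g₁) (c₂ : g₂ * f = f * g₂)
    {w : V} (hw : w ∈ W) : g₁ (g₂ w) = g₂ (g₁ w) := by
  by_cases hw0 : w = 0
  · subst hw0; simp
  obtain ⟨ev, hev⟩ : ∃ ev : K[X] →ₗ[K] V, ∀ P, ev P = aeval f P w :=
    ⟨(LinearMap.applyₗ w).comp (Polynomial.aeval f).toLinearMap, fun _ => rfl⟩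
  have hpowW : ∀ (j : ℕ), ∀ v ∈ W, (f ^ j) v ∈ W := fun j => by
    induction j with
    | zero => intro v hv; simpa using hv
    | succ j ih => intro v hv; rw [pow_succ, Module.End.mul_apply]; exact ih _ (hW v hv)
  have hle : LinearMap.range ev ≤ W := by
    rintro _ ⟨P, rfl⟩
    rw [hev]
    induction P using Polynomial.induction_on' with
    | add P Q hP hQ => rw [map_add, LinearMap.add_apply]; exact add_mem hP hQ
    | monomial j a =>
      rw [aeval_monomial, Algebra.algebraMap_eq_smul_one, smul_mul_assoc, one_mul, LinearMap.smul_apply]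
      exact W.smul_mem _ (hpowW j w hw)
  have hinv : ∀ v ∈ LinearMap.range ev, f v ∈ LinearMap.range ev := by
    rintro _ ⟨P, rfl⟩
    exact ⟨X * P, by rw [hev, hev, map_mul, aeval_X, Module.End.mul_apply]⟩
  have hne : LinearMap.range ev ≠ ⊥ := fun h => hw0 (by
    have : ev 1 = 0 := by rw [← Submodule.mem_bot K, ← h]; exact LinearMap.mem_range_self _ _
    rw [hev, map_one, Module.End.one_apply] at this
    exact this)
  have hW' := hirr _ hle hinv hne
  obtain ⟨P, hP⟩ : g₂ w ∈ LinearMap.range ev := by rw [hW']; exact h₂ w hw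
  obtain ⟨Q, hQ⟩ : g₁ w ∈ LinearMap.range ev := by rw [hW']; exact h₁ w hw
  have hc : ∀ (g : Module.End K V), g * f = f * g → ∀ R : K[X], g (aeval f R w) = aeval f R (g w) := by
    intro g hg R
    have hcm : Commute g (aeval f R) := by
      induction R using Polynomial.induction_on' with
      | add R S hR hS => rw [map_add]; exact hR.add_right hS
      | monomial j a =>
        rw [aeval_monomial]
        exact (Algebra.commute_algebraMap_right a g).mul_right ((show Commute g f from hg).pow_right j)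
    have := LinearMap.congr_fun hcm.eq w
    exact this
  rw [hev] at hP hQ
  rw [← hP, hc g₁ c₁, ← hQ, hc g₂ c₂, ← hP, ← Module.End.mul_apply, ← Module.End.mul_apply, ← map_mul, ← map_mul,
    mul_comm]

omit [Finite K] in
theorem dag_commute (hθ : ∀ a, θ (θ a) = a) {A : Matrix (Fin n) (Fin n) K} (hA : dag θ A * A = 1)
    {X : Matrix (Fin n) (Fin n) K} (hX : X * A = A * X) : dag θ X * A = A * dag θ X := by
  have h1 := congrArg (dag θ) hX
  rw [dag_mul, dag_mul] at h1
  have hA' : A * dag θ A = 1 := mul_eq_one_comm.mp hA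
  calc dag θ X * A = A * (dag θ A * dag θ X) * A := by rw [← Matrix.mul_assoc, hA', Matrix.one_mul]
    _ = A * dag θ X * (dag θ A * A) := by rw [h1]; simp only [Matrix.mul_assoc]
    _ = A * dag θ X := by rw [hA, Matrix.mul_one]

omit [Finite K] in
theorem nondeg_case (hθ : ∀ a, θ (θ a) = a) {A C : Matrix (Fin n) (Fin n) K} (hA : dag θ A * A = 1)
    {f : Module.End K V} (hf : f = Matrix.toLinAlgEquiv' A) {W : Submodule K V} (hWf : ∀ v ∈ W, f v ∈ W)
    (hirr : ∀ U : Submodule K V, U ≤ W → (∀ v ∈ U, f v ∈ U) → U ≠ ⊥ → U = W) (hWY : IsCompl W (orth θ W))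
    (hCA : C * A = A * C) (hNW : ∀ v, (C - 1) *ᵥ v ∈ W) (hNY : ∀ v ∈ orth θ W, (C - 1) *ᵥ v = 0) :
    dag θ (C - 1) * (C - 1) = (C - 1) * dag θ (C - 1) := by
  obtain ⟨N, hNdef⟩ : ∃ N, N = C - 1 := ⟨_, rfl⟩
  rw [← hNdef] at hNW hNY ⊢
  obtain ⟨Y, hY⟩ : ∃ Y, Y = orth θ W := ⟨_, rfl⟩
  have hMY : ∀ v ∈ Y, dag θ N *ᵥ v = 0 := fun v hv => eq_zero_of_herm hθ fun u => by
    rw [← herm_mulVec hθ]
    exact (hY ▸ hv) _ (hNW u)
  have hMW : ∀ v, dag θ N *ᵥ v ∈ W := fun v => by
    obtain ⟨a, ha, b, hb, hab⟩ := Submodule.mem_sup.mp (show dag θ N *ᵥ v ∈ W ⊔ orth θ W by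
      rw [hWY.sup_eq_top]; trivial)
    rw [← hab]
    suffices hb0 : b = 0 by rw [hb0, add_zero]; exact ha
    refine eq_zero_of_herm hθ fun u => ?_
    obtain ⟨a', ha', b', hb', rfl⟩ := Submodule.mem_sup.mp (show u ∈ W ⊔ orth θ W by
      rw [hWY.sup_eq_top]; trivial)
    rw [herm_add_left, hb a' ha', zero_add]
    have h1 : herm θ b' (dag θ N *ᵥ v) = 0 := by rw [← herm_mulVec hθ, hNY b' hb', herm_zero_left]
    rw [← hab, herm_add_right, herm_symm hθ a b', hb' a ha, map_zero, zero_add] at h1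
    exact h1
  refine Matrix.ext_of_mulVec_single fun i => ?_
  rw [← Matrix.mulVec_mulVec, ← Matrix.mulVec_mulVec]
  obtain ⟨a, ha, b, hb, hab⟩ := Submodule.mem_sup.mp (show (Pi.single i 1 : V) ∈ W ⊔ orth θ W by
    rw [hWY.sup_eq_top]; trivial)
  rw [← hab]
  simp only [Matrix.mulVec_add, hNY b hb, hMY b (hY ▸ hb), add_zero, Matrix.mulVec_zero]
  have hNA : N * A = A * N := by rw [hNdef, Matrix.sub_mul, Matrix.mul_sub, hCA, Matrix.one_mul, Matrix.mul_one]
  have hcomm : ∀ X : Matrix (Fin n) (Fin n) K, X * A = A * X → Matrix.toLinAlgEquiv' X * f = f * Matrix.toLinAlgEquiv' X :=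
    fun X hX => by rw [hf, ← map_mul, ← map_mul, hX]
  have := commute_on (f := f) (g₁ := Matrix.toLinAlgEquiv' (dag θ N)) (g₂ := Matrix.toLinAlgEquiv' N) hWf hirr
    (fun v _ => by rw [Matrix.toLinAlgEquiv'_apply]; exact hMW v)
    (fun v _ => by rw [Matrix.toLinAlgEquiv'_apply]; exact hNW v)
    (hcomm _ (dag_commute hθ hA hNA)) (hcomm _ hNA) ha
  simpa only [Matrix.toLinAlgEquiv'_apply] using this

/-- A unitary semisimple element commutes with unitary elements of every norm-one determinant. -/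
theorem exists_commuting_det (hθ : ∀ a, θ (θ a) = a) (hne : θ ≠ RingHom.id K) (hn : 0 < n)
    {A : Matrix (Fin n) (Fin n) K} (hA : dag θ A * A = 1) {k : ℕ} (hk : (k : K) ≠ 0) (hAk : A ^ k = 1)
    {δ : K} (hδ : δ * θ δ = 1) :
    ∃ z : Matrix (Fin n) (Fin n) K, dag θ z * z = 1 ∧ z * A = A * z ∧ z.det = δ := by
  classical
  obtain ⟨f, hf⟩ : ∃ f : Module.End K V, f = Matrix.toLinAlgEquiv' A := ⟨_, rfl⟩
  have hfa : ∀ v, f v = A *ᵥ v := fun v => by rw [hf, Matrix.toLinAlgEquiv'_apply]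
  have hfk : f ^ k = 1 := by rw [hf, ← map_pow, hAk, map_one]
  have hk1 : 1 ≤ k := Nat.one_le_iff_ne_zero.mpr fun h => hk (by rw [h, Nat.cast_zero])
  have hss : f.IsSemisimple := Module.End.isSemisimple_of_squarefree_aeval_eq_zero
    ((separable_X_pow_sub_C (1 : K) hk one_ne_zero).squarefree) (by simp [hfk])
  have hff : ∀ u v, herm θ (f u) (f v) = herm θ u v := fun u v => by
    rw [hfa, hfa, herm_mulVec hθ, Matrix.mulVec_mulVec, hA, Matrix.one_mulVec]
  have hpre : ∀ U : Submodule K V, (∀ v ∈ U, f v ∈ U) → ∀ v ∈ U, ∃ u ∈ U, f u = v := by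
    intro U hU v hv
    have hpow : ∀ (j : ℕ), ∀ w ∈ U, (f ^ j) w ∈ U := fun j => by
      induction j with
      | zero => intro w hw; simpa using hw
      | succ j ih => intro w hw; rw [pow_succ, Module.End.mul_apply]; exact ih _ (hU w hw)
    refine ⟨(f ^ (k - 1)) v, hpow _ v hv, ?_⟩
    rw [← Module.End.mul_apply, ← pow_succ', Nat.sub_add_cancel hk1, hfk, Module.End.one_apply]
  have horth : ∀ U : Submodule K V, (∀ v ∈ U, f v ∈ U) → ∀ v ∈ orth θ U, f v ∈ orth θ U := by
    intro U hU v hv w hw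
    obtain ⟨u, hu, rfl⟩ := hpre U hU w hw
    rw [hff]; exact hv u hu
  have hmin : ∀ S : Submodule K V, S ≠ ⊥ → (∀ v ∈ S, f v ∈ S) → ∃ W : Submodule K V, W ≤ S ∧ W ≠ ⊥ ∧
      (∀ v ∈ W, f v ∈ W) ∧ ∀ U : Submodule K V, U ≤ W → (∀ v ∈ U, f v ∈ U) → U ≠ ⊥ → U = W := by
    intro S hS hSf
    have hex : ∃ d, ∃ W : Submodule K V, W ≤ S ∧ W ≠ ⊥ ∧ (∀ v ∈ W, f v ∈ W) ∧ finrank K W = d :=
      ⟨_, S, le_rfl, hS, hSf, rfl⟩
    obtain ⟨W, hWS, hW0, hWf, hWd⟩ := Nat.find_spec hex
    refine ⟨W, hWS, hW0, hWf, fun U hU hUf hU0 => Submodule.eq_of_le_of_finrank_le hU ?_⟩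
    rw [hWd]
    exact Nat.find_min' hex ⟨U, hU.trans hWS, hU0, hUf, rfl⟩
  obtain ⟨c, hc0, hc⟩ : ∃ c : K, c ≠ 0 ∧ δ * θ c = c := by
    have hfor : ∀ a, δ * θ (a + δ * θ a) = a + δ * θ a := fun a => by
      rw [map_add, map_mul, hθ, mul_add, ← mul_assoc, hδ, one_mul, add_comm]
    by_contra hall
    push Not at hall
    have h0 : ∀ a, a + δ * θ a = 0 := fun a => by_contra fun h => hall _ h (hfor a)
    have hd : δ = -1 := by have := h0 1; rw [map_one, mul_one] at this; exact eq_neg_of_add_eq_zero_right this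
    exact hne (RingHom.ext fun a => by
      have := h0 a
      rw [hd, neg_one_mul, ← sub_eq_add_neg, sub_eq_zero] at this
      exact this.symm)
  -- a linear map supported on a suitable invariant subspace
  have build : ∀ W Y : Submodule K V, IsCompl W Y → W ≠ ⊥ → (∀ v ∈ W, f v ∈ W) → (∀ v ∈ Y, f v ∈ Y) →
      ∃ C : Matrix (Fin n) (Fin n) K, C.det = c ∧ C * A = A * C ∧ (∀ v, (C - 1) *ᵥ v ∈ W) ∧
        (∀ v ∈ Y, (C - 1) *ᵥ v = 0) := by
    intro W Y hWY hW0 hWf hYf
    obtain ⟨fW, hfW⟩ : ∃ fW : Module.End K W, fW = f.restrict hWf := ⟨_, rfl⟩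
    have hfWk : fW ^ k = 1 := by
      rw [hfW, Module.End.pow_restrict]
      ext v
      simp [hfk]
    obtain ⟨C₁, hC₁f, hC₁d⟩ := Cfsg.Agent.H29.Semisimple.exists_commute_det fW hk hfWk
      (Nat.pos_of_ne_zero fun h => hW0 (Submodule.finrank_eq_zero.mp h)) hc0
    obtain ⟨e, he⟩ : ∃ e : (W × Y) ≃ₗ[K] V, e = Submodule.prodEquivOfIsCompl W Y hWY := ⟨_, rfl⟩
    obtain ⟨C, hC⟩ : ∃ C : Module.End K V, C = e.conj (LinearMap.prodMap C₁ LinearMap.id) := ⟨_, rfl⟩
    have hev : ∀ (a : W) (b : Y), e (a, b) = (a : V) + (b : V) := fun a b => by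
      rw [he, Submodule.coe_prodEquivOfIsCompl']
    have hCe : ∀ (a : W) (b : Y), C ((a : V) + (b : V)) = (C₁ a : V) + (b : V) := fun a b => by
      rw [← hev, hC, LinearEquiv.conj_apply_apply, LinearEquiv.symm_apply_apply, LinearMap.prodMap_apply, hev]
      rfl
    have hdec : ∀ v, ∃ (a : W) (b : Y), v = (a : V) + (b : V) := fun v =>
      ⟨(e.symm v).1, (e.symm v).2, by rw [← hev, Prod.mk.eta, e.apply_symm_apply]⟩
    refine ⟨LinearMap.toMatrix' C, ?_, ?_, fun v => ?_, fun v hv => ?_⟩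
    · rw [LinearMap.det_toMatrix', hC, LinearEquiv.conj_apply, LinearMap.comp_assoc, LinearMap.det_conj,
        LinearMap.det_prodMap, hC₁d, LinearMap.det_id, mul_one]
    · refine Matrix.ext_of_mulVec_single fun i => ?_
      rw [← Matrix.mulVec_mulVec, ← Matrix.mulVec_mulVec, LinearMap.toMatrix'_mulVec, LinearMap.toMatrix'_mulVec,
        ← hfa, ← hfa]
      obtain ⟨a, b, hab⟩ := hdec (Pi.single i 1)
      have h1 : f (a : V) = (fW a : V) := by rw [hfW]; rfl
      have h2 : (C₁ (fW a) : V) = (fW (C₁ a) : V) := congrArg Subtype.val (LinearMap.congr_fun hC₁f.eq a)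
      rw [hab, map_add, h1, show f (b : V) = ((⟨f b, hYf b b.2⟩ : Y) : V) from rfl, hCe, hCe, map_add, h2,
        show f ((C₁ a : W) : V) = (fW (C₁ a) : V) by rw [hfW]; rfl]
    · obtain ⟨a, b, rfl⟩ := hdec v
      rw [Matrix.sub_mulVec, Matrix.one_mulVec, LinearMap.toMatrix'_mulVec, hCe, add_sub_add_right_eq_sub]
      exact sub_mem (C₁ a).2 a.2
    · have h0 := hCe 0 ⟨v, hv⟩
      simp only [map_zero, ZeroMemClass.coe_zero, zero_add] at h0
      rw [Matrix.sub_mulVec, Matrix.one_mulVec, LinearMap.toMatrix'_mulVec, h0, sub_self]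
  have hdag := fun (X : Matrix (Fin n) (Fin n) K) (hX : X * A = A * X) => dag_commute hθ hA hX
  have finish : ∀ C : Matrix (Fin n) (Fin n) K, C.det = c → C * A = A * C → dag θ C * C = C * dag θ C →
      ∃ z : Matrix (Fin n) (Fin n) K, dag θ z * z = 1 ∧ z * A = A * z ∧ z.det = δ := by
    intro C hCd hCA hCN
    have hCu : IsUnit C.det := hCd ▸ hc0.isUnit
    have hDu : IsUnit (dag θ C).det := isUnit_det_dag θ hCu
    have hdi : dag θ ((dag θ C)⁻¹) = C⁻¹ := by
      refine (Matrix.inv_eq_right_inv ?_).symm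
      have h1 := congrArg (dag θ) (Matrix.nonsing_inv_mul _ hDu)
      rw [dag_mul, dag_one, dag_dag θ hθ] at h1
      exact h1
    refine ⟨C * (dag θ C)⁻¹, ?_, ?_, ?_⟩
    · rw [dag_mul, hdi]
      calc C⁻¹ * dag θ C * (C * (dag θ C)⁻¹) = C⁻¹ * (dag θ C * C) * (dag θ C)⁻¹ := by simp only [Matrix.mul_assoc]
        _ = (C⁻¹ * C) * (dag θ C * (dag θ C)⁻¹) := by rw [hCN]; simp only [Matrix.mul_assoc]
        _ = 1 := by rw [Matrix.nonsing_inv_mul _ hCu, Matrix.mul_nonsing_inv _ hDu, Matrix.one_mul]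
    · rw [Matrix.mul_assoc, inv_mul_conj hDu (hdag C hCA), ← Matrix.mul_assoc, hCA, Matrix.mul_assoc]
    · have hθc : θ c ≠ 0 := by rwa [Ne, map_eq_zero]
      rw [Matrix.det_mul, Matrix.det_nonsing_inv, det_dag, hCd, Ring.inverse_eq_inv', ← div_eq_mul_inv, div_eq_iff hθc, hc]
  have hN : ∀ C : Matrix (Fin n) (Fin n) K, dag θ C * C = C * dag θ C ↔ dag θ (C - 1) * (C - 1) = (C - 1) * dag θ (C - 1) := by
    intro C
    have : dag θ (C - 1) = dag θ C - 1 := by
      have h0 := dag_add θ (C - 1) 1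
      rw [sub_add_cancel, dag_one] at h0
      exact eq_sub_of_add_eq h0.symm
    rw [this, show (dag θ C - 1) * (C - 1) = dag θ C * C - (dag θ C + C - 1) by noncomm_ring,
      show (C - 1) * (dag θ C - 1) = C * dag θ C - (dag θ C + C - 1) by noncomm_ring]
    exact sub_left_inj.symm
  obtain ⟨W₀, -, hW0, hWf, hirr⟩ := hmin ⊤ (by
    intro h
    have := congrArg (fun U : Submodule K V => finrank K U) h
    simp only [finrank_top, finrank_bot, Module.finrank_fin_fun] at this
    omega) fun v _ => trivial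
  by_cases hnd : W₀ ⊓ orth θ W₀ = ⊥
  · obtain ⟨C, hCd, hCA, hNW, hNY⟩ := build W₀ (orth θ W₀) (isCompl_orth W₀ hnd) hW0 hWf (horth W₀ hWf)
    refine finish C hCd hCA ((hN C).mpr ?_)
    exact nondeg_case hθ hA hf hWf hirr (isCompl_orth W₀ hnd) hCA hNW hNY
  · have hiso : W₀ ≤ orth θ W₀ := by
      have := hirr _ inf_le_left (fun v hv => ⟨hWf v hv.1, horth W₀ hWf v hv.2⟩) hnd
      rw [← this]
      exact fun v hv => fun w hw => by
        exact (show v ∈ orth θ W₀ from hv.2) w (this ▸ hw)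
    obtain ⟨S, hSf, hS⟩ := Module.End.isSemisimple_iff.mp hss (orth θ W₀) (horth W₀ hWf)
    have hS0 : S ≠ ⊥ := by
      intro h
      rw [h] at hS
      have htop := hS.sup_eq_top
      rw [sup_bot_eq] at htop
      obtain ⟨w, hw, hw0⟩ := (Submodule.ne_bot_iff _).mp hW0
      refine hw0 (eq_zero_of_herm hθ fun u => ?_)
      rw [herm_symm hθ, (show u ∈ orth θ W₀ by rw [htop]; trivial) w hw, map_zero]
    obtain ⟨U, hUS, hU0, hUf, hUirr⟩ := hmin S hS0 hSf
    have hUnot : ¬ U ≤ orth θ W₀ := fun h => hU0 (le_bot_iff.mp (hS.inf_eq_bot ▸ le_inf h hUS))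
    by_cases hUnd : U ⊓ orth θ U = ⊥
    · obtain ⟨C, hCd, hCA, hNW, hNY⟩ := build U (orth θ U) (isCompl_orth U hUnd) hU0 hUf (horth U hUf)
      refine finish C hCd hCA ((hN C).mpr ?_)
      exact nondeg_case hθ hA hf hUf hUirr (isCompl_orth U hUnd) hCA hNW hNY
    have hUiso : U ≤ orth θ U := by
      have := hUirr _ inf_le_left (fun v hv => ⟨hUf v hv.1, horth U hUf v hv.2⟩) hUnd
      rw [← this]
      exact fun v hv => fun w hw => by
        exact (show v ∈ orth θ U from hv.2) w (this ▸ hw)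
    have hUW : ∀ u ∈ U, u ∈ orth θ W₀ → u = 0 := fun u hu hu' => by
      rw [← Submodule.mem_bot K, ← hS.inf_eq_bot]
      exact ⟨hu', hUS hu⟩
    have hWU : ∀ w ∈ W₀, w ∈ orth θ U → w = 0 := by
      have h0 : W₀ ⊓ orth θ U = ⊥ := by
        by_contra h
        have h1 := hirr _ inf_le_left (fun v hv => ⟨hWf v hv.1, horth U hUf v hv.2⟩) h
        refine hUnot fun u hu w hw => ?_
        have h2 : w ∈ orth θ U := (show w ∈ W₀ ⊓ orth θ U by rw [h1]; exact hw).2
        rw [herm_symm hθ, h2 u hu, map_zero]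
      intro w hw hw'
      rw [← Submodule.mem_bot K, ← h0]
      exact ⟨hw, hw'⟩
    obtain ⟨Xs, hXs⟩ : ∃ Xs, Xs = W₀ ⊔ U := ⟨_, rfl⟩
    have hXnd : Xs ⊓ orth θ Xs = ⊥ := by
      rw [eq_bot_iff]
      rintro v ⟨hv, hv'⟩
      rw [hXs] at hv hv'
      obtain ⟨w, hw, u, hu, rfl⟩ := Submodule.mem_sup.mp hv
      have hw0 : w = 0 := hWU w hw fun u' hu' => by
        have h1 := hv' u' (Submodule.mem_sup_right hu')
        rwa [herm_add_right, hUiso hu u' hu', add_zero] at h1
      have hu0 : u = 0 := hUW u hu fun w' hw' => by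
        have h1 := hv' w' (Submodule.mem_sup_left hw')
        rwa [herm_add_right, hiso hw w' hw', zero_add] at h1
      rw [Submodule.mem_bot, hw0, hu0, add_zero]
    have hXc := isCompl_orth Xs hXnd
    obtain ⟨Y, hY⟩ : ∃ Y, Y = U ⊔ orth θ Xs := ⟨_, rfl⟩
    have hXsf : ∀ v ∈ Xs, f v ∈ Xs := by
      rw [hXs]
      intro v hv
      obtain ⟨w, hw, u, hu, rfl⟩ := Submodule.mem_sup.mp hv
      rw [map_add]
      exact Submodule.add_mem_sup (hWf w hw) (hUf u hu)
    have hYf : ∀ v ∈ Y, f v ∈ Y := by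
      rw [hY]
      intro v hv
      obtain ⟨u, hu, x, hx, rfl⟩ := Submodule.mem_sup.mp hv
      rw [map_add]
      exact Submodule.add_mem_sup (hUf u hu) (horth Xs hXsf x hx)
    have hWY : IsCompl W₀ Y := by
      refine ⟨disjoint_iff.mpr (eq_bot_iff.mpr ?_), codisjoint_iff.mpr ?_⟩
      · rintro v ⟨hv, hv'⟩
        rw [hY] at hv'
        obtain ⟨u, hu, x, hx, rfl⟩ := Submodule.mem_sup.mp hv'
        rw [Submodule.mem_bot]
        have hv2 : u + x ∈ orth θ U := fun u' hu' => by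
          rw [herm_add_right, hUiso hu u' hu', hx u' (hXs ▸ Submodule.mem_sup_right hu'), add_zero]
        exact hWU _ hv hv2
      · rw [hY, ← sup_assoc, ← hXs, hXc.sup_eq_top]
    obtain ⟨C, hCd, hCA, hNW, hNY⟩ := build W₀ Y hWY hW0 hWf hYf
    refine finish C hCd hCA ((hN C).mpr ?_)
    obtain ⟨N, hNdef⟩ : ∃ N, N = C - 1 := ⟨_, rfl⟩
    rw [← hNdef] at hNW hNY ⊢
    have hM0 : ∀ v ∈ W₀, dag θ N *ᵥ v = 0 := fun v hv => eq_zero_of_herm hθ fun u => by
      rw [← herm_mulVec hθ]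
      exact hiso hv _ (hNW u)
    have hMperp : ∀ v, dag θ N *ᵥ v ∈ Y := fun v => by
      obtain ⟨w, hw, y, hy, hwy⟩ := Submodule.mem_sup.mp (show dag θ N *ᵥ v ∈ W₀ ⊔ Y by
        rw [hWY.sup_eq_top]; trivial)
      rw [← hwy]
      suffices hw0 : w = 0 by rw [hw0, zero_add]; exact hy
      refine hWU w hw fun u hu => ?_
      have h1 : herm θ u (dag θ N *ᵥ v) = 0 := by
        rw [← herm_mulVec hθ, hNY u (hY ▸ Submodule.mem_sup_left hu), herm_zero_left]
      rw [hY] at hy
      obtain ⟨u', hu', x, hx, rfl⟩ := Submodule.mem_sup.mp hy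
      rw [← hwy, herm_add_right, herm_add_right, hUiso hu' u hu, hx u (hXs ▸ Submodule.mem_sup_right hu), add_zero,
        add_zero] at h1
      exact h1
    refine Matrix.ext_of_mulVec_single fun i => ?_
    rw [← Matrix.mulVec_mulVec, ← Matrix.mulVec_mulVec, hM0 _ (hNW _), hNY _ (hMperp _)]

end CfsgLib.FormConj.Semi
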